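import Cfsg.Agent.H208.PiExc.Tw
import Cfsg.Agent.H73.Pi.GraphFieldE6

/-!
# S4324 (helper208): the rows of `E₆`, `E₇`, `E₈`, `²E₆` of `H809.Pi.Rows`

The statements are those of the fields of `LieRow` (`Cfsg/Agent/H809/Pi/Parts.lean`, not imported: it imports `S0000`).
-/

set_option autoImplicit false

namespace Cfsg.Agent.H208.PiExc

open Subgroup Cfsg Cfsg.Agent.H216.Pi

universe u

/-- **The row `CY` of `E₆(F)`.** -/
theorem cy_six_all {F : Type u} [Field F] [Fintype F] {t : ℕ} [Fact t.Prime] [CharP F t]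
    [Finite ↥(Lie.chevE6.group F)] [IsSimpleGroup ↥(Lie.chevE6.group F)] (hK : ¬ IsMulCommutative ↥(Lie.chevE6.group F)) :
    CY t ↥(Lie.chevE6.group F) := by
  have hch := H296.Core.charP_closure F t
  intro s r x hs hr hr3 hrs hrK hst hsK hP hx hxs hxr hPC hFC
  have : Fact s.Prime := ⟨hs⟩
  have h11 : 11 ≤ r := le_E6 hr hr3 hrK
  have hF : FC s 18 x := hFC.mono (by unfold mm; omega)
  have key : AlgX H296.ESixGF.hp6 t (GpExc.Field.emb H296.ESixGF.hp6.inList (algebraMap F (AlgebraicClosure F))) x →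
      False := by
    intro h
    obtain ⟨y, hy⟩ := exists_prime_orderOf_dvd_card' (G := ↥(Lie.chevE6.group F)) s hsK
    exact H326.PiC.false_of_fus hK hs hP hx hxs hy (fus_le_of_algX h le_of_totient6 s y hs hst hy) hF
  rcases H73.Pi.GraphFieldE6.cases_E6 hx (center_eq_bot_of_simple hK) hs hsK (by norm_num) hF with
    ⟨w, d, hd, h⟩ | ⟨-, w, d, g, hd, hg, hg1, h⟩
  · exact key (algX_diag BpExc.FamInst.inv_E6 (by norm_num) hd h)
  · rw [H296.ESixGF.eq_gr hg hg1] at h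
    exact key (algX_graph hd h)

section

variable (t : ℕ) (K : Type) [Group K] [Finite K] [IsSimpleGroup K]

theorem not_comm_tr {K L : Type*} [Group K] [Group L] (e : K ≃* L) (h : ¬ IsMulCommutative K) : ¬ IsMulCommutative L := by
  intro hL
  apply h
  refine ⟨⟨fun a b => e.injective ?_⟩⟩
  rw [map_mul, map_mul]
  exact hL.is_comm.comm _ _

theorem CY_E6 (hna : ¬ IsMulCommutative K) (ht : t.Prime)
    (h : ∃ (F : Type) (_ : Field F) (_ : Fintype F) (_ : CharP F t), Nonempty (K ≃* Lie.chevE6.group F)) : CY t K := by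
  obtain ⟨F, _, _, _, ⟨e⟩⟩ := h
  have : Fact t.Prime := ⟨ht⟩
  have hs : IsSimpleGroup ↥(Lie.chevE6.group F) := (MulEquiv.isSimpleGroup_congr e).1 inferInstance
  have hf : Finite ↥(Lie.chevE6.group F) := Finite.of_equiv K e.toEquiv
  exact cy_tr e.symm (cy_six_all (not_comm_tr e hna))

theorem CY_E7 (hna : ¬ IsMulCommutative K) (ht : t.Prime)
    (h : ∃ (F : Type) (_ : Field F) (_ : Fintype F) (_ : CharP F t), Nonempty (K ≃* Lie.chevE7.group F)) : CY t K := by
  obtain ⟨F, _, _, _, ⟨e⟩⟩ := h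
  have : Fact t.Prime := ⟨ht⟩
  have hs : IsSimpleGroup ↥(Lie.chevE7.group F) := (MulEquiv.isSimpleGroup_congr e).1 inferInstance
  have hf : Finite ↥(Lie.chevE7.group F) := Finite.of_equiv K e.toEquiv
  exact cy_tr e.symm (cy_78 (Or.inl rfl) (not_comm_tr e hna))

theorem CY_E8 (hna : ¬ IsMulCommutative K) (ht : t.Prime)
    (h : ∃ (F : Type) (_ : Field F) (_ : Fintype F) (_ : CharP F t), Nonempty (K ≃* Lie.chevE8.group F)) : CY t K := by
  obtain ⟨F, _, _, _, ⟨e⟩⟩ := h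
  have : Fact t.Prime := ⟨ht⟩
  have hs : IsSimpleGroup ↥(Lie.chevE8.group F) := (MulEquiv.isSimpleGroup_congr e).1 inferInstance
  have hf : Finite ↥(Lie.chevE8.group F) := Finite.of_equiv K e.toEquiv
  exact cy_tr e.symm (cy_78 (Or.inr rfl) (not_comm_tr e hna))

theorem CY_twE6 (hna : ¬ IsMulCommutative K) (ht : t.Prime)
    (h : ∃ (F : Type) (_ : Field F) (_ : Fintype F) (_ : CharP F t) (q : ℕ), IsPrimePow q ∧
      Fintype.card F = q ^ 2 ∧ Nonempty (K ≃* Lie.twistedE6 F q)) : CY t K := by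
  obtain ⟨F, _, _, _, q, hq, hF, ⟨e⟩⟩ := h
  have : Fact t.Prime := ⟨ht⟩
  have hs : IsSimpleGroup ↥(Lie.twistedE6 F q) := (MulEquiv.isSimpleGroup_congr e).1 inferInstance
  have hf : Finite ↥(Lie.twistedE6 F q) := Finite.of_equiv K e.toEquiv
  exact cy_tr e.symm (cy_twE6 hq hF (not_comm_tr e hna))

end

end Cfsg.Agent.H208.PiExc
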