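import Cfsg.Agent.H208.PiExc.Rows
import Cfsg.Agent.H249.Pi.TwTra

/-!
# S4324 (helper208): the row `CY` of `²E₆(q)`

* `alg_two` : automorphisms `x` of `²E₆(q)` with `x ^ 2 = 1` are algebraic (inner-diagonal or graph);
* `cy_twE6` : the row `CY`.
-/

set_option autoImplicit false
set_option linter.unusedSectionVars false

namespace Cfsg.Agent.H208.PiExc

open CoxeterSystem Subgroup Cfsg Cfsg.Lie Cfsg.Lie.ChevalleyDatum
open Cfsg.Agent.ChevalleyStructure Cfsg.Agent.ChevalleyStructure.Elts Cfsg.Agent.ChevStructure.FieldMap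
open Cfsg.Agent.Nodes.RGDTwE6 Cfsg.Agent.Nodes.RGDTwNode.E6
open Cfsg.Agent.ChevalleyStructure.TwE6Basic (hE6 single_mem pair_mem twisted_le_iff exists_frob twisted_le_fix)
open Cfsg.Agent.ChevalleyStructure.GraphSymm (symmE6)
open Cfsg.Agent.CpAut.RgdTwStd Cfsg.Agent.CpAut.RgdTwE6
open Cfsg.Agent.CpAut.RgdUntw (fld fld_coe fld_one)
open Cfsg.Agent.GpExc.Field (glMap coe_glMap)
open Cfsg.Agent.BpExc.FamTw.Gr Cfsg.Agent.BpExc.FamTw.Six Cfsg.Agent.BpExc.FamField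
open Cfsg.Agent.H216.Pi

universe u v

section

variable {K : Type u} [Field K] [Fintype K] {k : Type u} [Field k] [IsAlgClosed k] {q r : ℕ} [Fact r.Prime] [CharP K r]
  [CharP k r] (f : K →+* k)

/-- field automorphisms of `²E₆(q)` as restrictions of field automorphisms of `E₆(k)` -/
theorem em_st (τ : K ≃+* K) {Φ : k ≃+* k} (h : ∀ a, Φ (f a) = f (τ a)) (g : ↥(twistedE6 K q)) :
    em q f (st q τ g) = fld chevE6 Φ (em q f g) := by
  apply Subtype.ext
  rw [coe_em, coe_fld, coe_em]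
  show glMap chevE6 f (glEquiv chevE6 τ (g : GL chevE6.Idx K)) = _
  apply Units.ext
  rw [coe_glMap, coe_glMap, coe_glMap]
  ext i j
  show f (τ _) = Φ (f _)
  rw [h]

/-- **Involutory automorphisms of `²E₆(q)` are algebraic.** -/
theorem alg_two {n : ℕ} (hn0 : 0 < n) (hn : q = r ^ n) (hK : Fintype.card K = q ^ 2) {x : MulAut ↥(twistedE6 K q)}
    (hx : x ^ 2 = 1) : AlgX H296.ESixGF.hp6 r (em q f) x := by
  have hrp : r.Prime := Fact.out
  have hq1 : 1 < q := by rw [hn]; exact Nat.one_lt_pow hn0.ne' hrp.one_lt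
  have hq : IsPrimePow q := (isPrimePow_nat_iff _).2 ⟨r, n, hrp, hn0, hn.symm⟩
  obtain ⟨φ, hφ, hqq⟩ := exists_frob hq hK
  obtain ⟨cs⟩ : Nonempty (CoxeterSystem CoxeterMatrix.F₄ CoxeterMatrix.F₄.Group) :=
    ⟨CoxeterMatrix.F₄.toCoxeterSystem⟩
  have hW : Finite CoxeterMatrix.F₄.Group :=
    Cfsg.Agent.Nodes.RGDChev.finite_W BpExc.RowsUntw.f4T CoxeterMatrix.F₄.toCoxeterSystem
  have hcs := CoxeterMatrix.F₄.toCoxeterSystem
  obtain ⟨Φ, hΦe⟩ : ∃ Φ : k ≃+* k, Φ = frb k r n := ⟨_, rfl⟩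
  have hΦ : ∀ a, Φ (f a) = f (φ a) := by
    intro a
    rw [hΦe, frb_apply, hφ, hn, map_pow]
  obtain ⟨a, τ, y, S, hσy, e⟩ := exists_lift hφ hqq hcs r f hK hq1
    (fun a => IsAlgClosed.exists_pow_nat_eq (f a) (by norm_num)) hΦ x
  have hτ2 := tau_pow_eq_one hφ hqq hcs r S hx
  -- `τ = 1` or `τ = φ`
  have hKn : Nat.card K = r ^ (2 * n) := by rw [Nat.card_eq_fintype_card, hK, hn, ← pow_mul, mul_comm]
  obtain ⟨j, hj⟩ := exists_pow_eq r τ
  have h1 : 2 * n ∣ j * 2 := (forall_pow_iff r hKn (j * 2)).1 fun a => by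
    rw [← pow_apply_of hj, hτ2]; rfl
  obtain ⟨c, hc⟩ : n ∣ j := by
    obtain ⟨c, hc⟩ := h1
    exact ⟨c, by
      have : 2 * j = 2 * (n * c) := by rw [mul_comm 2 j, hc]; ring
      omega⟩
  have hgr : (gr (L := k) hE6 symmE6)⁻¹ = gr hE6 symmE6 := inv_eq_of_mul_eq_one_left H296.ESixGF.gr_sq6
  rcases Nat.even_or_odd' c with ⟨b, hb | hb⟩
  · -- `τ = 1`
    have hτ : ∀ a : K, (1 : k ≃+* k) (f a) = f (τ a) := by
      intro a
      rw [hj, hc, hb, show n * (2 * b) = 2 * n * b by ring, (forall_pow_iff r hKn _).2 ⟨b, rfl⟩]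
      rfl
    refine AlgX.conj y fun g => ?_
    rw [e, em_st f τ hτ, fld_one]
    rfl
  · -- `τ = φ`
    have hτ : ∀ a : K, Φ (f a) = f (τ a) := by
      intro a
      rw [hj, hc, hb, show n * (2 * b + 1) = 2 * n * b + n by ring, pow_add, pow_mul,
        (forall_pow_iff r hKn _).2 ⟨b, rfl⟩, hΦe, frb_apply, map_pow]
    refine ⟨MulAut.conj y * gr hE6 symmE6, AlgP.mul pwTrue (AlgP.conj pwTrue _) algP_gr, fun g => ?_⟩
    rw [e, em_st f τ hτ, MulAut.mul_apply, MulAut.conj_apply]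
    have h2 : gr hE6 symmE6 (em q f g) = fld chevE6 Φ (em q f g) := by
      have h3 := sig_em hφ hqq f hΦ g
      have h4 := congrArg (gr (L := k) hE6 symmE6) h3
      rw [← h4, ← MulAut.mul_apply, H296.ESixGF.gr_sq6]
      rfl
    rw [h2]

end

/-- **The row `CY` of `²E₆(q)`.** -/
theorem cy_twE6 {K : Type} [Field K] [Fintype K] {q t : ℕ} [Fact t.Prime] [CharP K t] (hq : IsPrimePow q)
    (hK : Fintype.card K = q ^ 2) [Finite ↥(twistedE6 K q)] [IsSimpleGroup ↥(twistedE6 K q)]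
    (hna : ¬ IsMulCommutative ↥(twistedE6 K q)) : CY t ↥(twistedE6 K q) := by
  have hch := H296.Core.charP_closure K t
  have hk := H296.Core.locFin_closure K t
  obtain ⟨n, hn0, hn⟩ := H469.Exc.exists_eq_pow (r := t) hq hK
  refine cy_of_cases hna (N := 18) (fun r hr h3 hd => ?_) fun x hx => ?_
  · have h11 : 11 ≤ r := le_twE6 hq hK hr h3 hd
    unfold mm
    omega
  · have key : AlgX H296.ESixGF.hp6 t (em q (algebraMap K (AlgebraicClosure K))) x →
        ∀ (s : ℕ) (y : ↥(twistedE6 K q)), s.Prime → s ≠ t → orderOf y = s → fus x y ≤ 18 :=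
      fun h s y hs hst hy => h.fus_le hk (hAlg_closure K t) (em_injective _) hs hst le_of_totient6 hy
    rcases eq_or_ne (orderOf x) 2 with h2 | h2
    · exact Or.inl (key (alg_two _ hn0 hn hK (by rw [← h2, pow_orderOf_eq_one])))
    · rcases H249.Pi.TwTra.six_cases (algebraMap K (AlgebraicClosure K)) t hn0 hn hK hx h2 (pow_orderOf_eq_one x) with
        ⟨y, -, -, h⟩ | h
      · exact Or.inl (key (AlgX.conj y h))
      · exact Or.inr fun z => (h z).mono (by norm_num)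

end Cfsg.Agent.H208.PiExc
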